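import Cfsg.Agent.H954.TSing9
import Cfsg.Agent.H37.HT.Fd

/-!
# S4933, part (O), orthogonal groups: the exponents of the eigenvalues of `y` (helper683)
-/

set_option autoImplicit false

namespace Cfsg.Agent.H683.HT

open Module Cfsg.Agent.LieClassical.OrthCore Cfsg.Agent.H955 Cfsg.Agent.H954.TSing

/-- the exponents of the eigenvalues of `y` (`q` the order of the field, `e` the order of `q` modulo `p`, `N` the
dimension, `P` the order of `y`) -/
def sY (q e N P : ℕ) : Multiset ℕ :=
  if Even e then (Multiset.range e).map (fun i => q ^ i) + Multiset.replicate (N - e) 0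
  else (Multiset.range e).map (fun i => q ^ i) + (Multiset.range e).map (fun i => (P - 1) * q ^ i) +
    Multiset.replicate (N - 2 * e) 0

/-- there is room for `y` -/
def Room {F V : Type} [Field F] [AddCommGroup V] [Module F V] (Q : QuadraticForm F V) (e : ℕ) : Prop :=
  (Even e ∧ ((Even (finrank F V) ∧ (e < finrank F V ∨ (e = finrank F V ∧ ¬ IsPlus Q))) ∨
    ((2 : F) ≠ 0 ∧ e < finrank F V))) ∨
  (Odd e ∧ ((Even (finrank F V) ∧ (2 * e < finrank F V ∨ (2 * e = finrank F V ∧ IsPlus Q))) ∨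
    ((2 : F) ≠ 0 ∧ 2 * e < finrank F V)))

/-- BOX (Y): the element `y` -/
def StmtY : Prop :=
  ∀ {F V : Type} [Field F] [Fintype F] [AddCommGroup V] [Module F V] [FiniteDimensional F V] {Q : QuadraticForm F V}
    {K : Type} [Field K] [IsAlgClosed K] [Algebra F K] {p e m : ℕ} [Fact p.Prime] {ω : K},
    Nondeg Q → p ≠ 2 → 0 < e → orderOf ((Fintype.card F : ℕ) : ZMod p) = e →
    p ^ (m + 1) ∣ Fintype.card F ^ e - 1 → IsPrimitiveRoot ω (p ^ (m + 1)) → Room Q e →
    ∃ T ∈ O Q, T ^ p ^ (m + 1) = 1 ∧ (((T : V →ₗ[F] V).charpoly).map (algebraMap F K)).roots =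
      (sY (Fintype.card F) e (finrank F V) (p ^ (m + 1))).map (fun k => ω ^ k)

end Cfsg.Agent.H683.HT
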