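import Cfsg.Agent.H954.TSing9

/-!
# S4933, part (O): an element of order `p` with a small commutator space (helper683)
-/

set_option autoImplicit false

namespace Cfsg.Agent.H683.HT

open Module QuadraticMap Cfsg.Agent.LieClassical.OrthCore Cfsg.Agent.H955

/-- an isometry of order `p` moving a space of dimension at most `2 e` only -/
theorem exists_small {F V : Type*} [Field F] [Finite F] [AddCommGroup V] [Module F V] [FiniteDimensional F V]
    {Q : QuadraticForm F V} (hQ : Nondeg Q) {t : V ≃ₗ[F] V} (ht : t ∈ O Q) {p : ℕ} [hp : Fact p.Prime] (hp2 : p ≠ 2)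
    (hpF : ¬ p ∣ Nat.card F) (htp : t ^ p = 1) (ht1 : t ≠ 1) :
    ∃ t₁ ∈ O Q, t₁ ^ p = 1 ∧ t₁ ≠ 1 ∧ finrank F (comS t₁) ≤ 2 * orderOf (Nat.card F : ZMod p) := by
  have h2 : 2 < p := lt_of_le_of_ne hp.out.two_le hp2.symm
  have hrF := natCast_ne_zero_of_not_dvd (F := F) hpF
  obtain ⟨h1, n, hd, -⟩ := blocks_of_comS hQ ht h2 hpF htp
  have hn : 1 ≤ n := by
    by_contra hn
    have hn0 : n = 0 := by omega
    rw [hn0, mul_zero] at hd
    have h3 : comS t = ⊥ := Submodule.finrank_eq_zero.1 hd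
    apply ht1
    ext v
    have h4 : t v - v ∈ comS t := mem_comS.2 ⟨v, rfl⟩
    rw [h3, Submodule.mem_bot, sub_eq_zero] at h4
    exact h4
  obtain ⟨D, hD, hDi, hDn, hDf, -⟩ := exists_blocks_quad ht h2 hpF htp (inv_comS t) h1 (free_comS hrF htp) 1
    (by rw [hd]; exact Nat.mul_le_mul_left _ hn)
  have hfree : ∀ w : D, resT t D hDi w = w → w = 0 := fun w hw =>
    Subtype.ext (free_comS hrF htp w (hD w.2) (congrArg Subtype.val hw))
  have hcom := comS_ext1 hDn hfree
  refine ⟨ext1 hDn (resT t D hDi), ext1_mem_O hDn (resT_mem_O ht hDi), ext1_pow hDn (resT_pow_eq_one htp), ?_, ?_⟩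
  · intro h
    rw [h] at hcom
    have h5 : D = ⊥ := by
      rw [← hcom, eq_bot_iff]
      rintro _ ⟨w, rfl⟩
      rw [Submodule.mem_bot]
      exact sub_self w
    rw [h5, finrank_bot, mul_one] at hDf
    have := cc_pos (q := Nat.card F) (r := p) hpF
    omega
  · rw [hcom, hDf, mul_one, cc]
    split_ifs <;> omega

end Cfsg.Agent.H683.HT
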